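import Mathlib

/-!
# Definitions for S0747 (Livingstone–Wagner type statement: a `k`-transitive group, `4 ≤ k < n`,
induces at least the alternating group on some `(k+1)`-set).

Everything is phrased elementwise inside `Equiv.Perm α`.
-/

set_option autoImplicit false
set_option linter.unusedSectionVars false

namespace Cfsg.Agent.Lead.LW

variable {α : Type*} [Fintype α] [DecidableEq α]

/-- Elementwise `k`-transitivity of a permutation group. -/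
def KTrans (G : Subgroup (Equiv.Perm α)) (k : ℕ) : Prop :=
  ∀ x y : Fin k ↪ α, ∃ g ∈ G, ∀ i, g (x i) = y i

/-- Pointwise stabiliser in `G` of a finset. -/
def pstab (G : Subgroup (Equiv.Perm α)) (S : Finset α) : Subgroup (Equiv.Perm α) where
  carrier := {g | g ∈ G ∧ ∀ a ∈ S, g a = a}
  mul_mem' := by
    rintro g h ⟨hg, hg'⟩ ⟨hh, hh'⟩
    exact ⟨G.mul_mem hg hh, fun a ha => by
      rw [Equiv.Perm.mul_apply, hh' a ha, hg' a ha]⟩
  one_mem' := ⟨G.one_mem, fun _ _ => rfl⟩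
  inv_mem' := by
    rintro g ⟨hg, hg'⟩
    exact ⟨G.inv_mem hg, fun a ha => by
      rw [Equiv.Perm.inv_eq_iff_eq]; exact (hg' a ha).symm⟩

theorem mem_pstab {G : Subgroup (Equiv.Perm α)} {S : Finset α} {g : Equiv.Perm α} :
    g ∈ pstab G S ↔ g ∈ G ∧ ∀ a ∈ S, g a = a := Iff.rfl

/-- The group induced on the finset `Φ` by the elements of `K` mapping `Φ` to itself. -/
def induced (K : Subgroup (Equiv.Perm α)) (Φ : Finset α) : Subgroup (Equiv.Perm ↥Φ) where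
  carrier := {σ | ∃ g ∈ K, ∀ x : ↥Φ, g (x : α) = (σ x : α)}
  mul_mem' := by
    rintro σ τ ⟨g, hg, hg'⟩ ⟨h, hh, hh'⟩
    exact ⟨g * h, K.mul_mem hg hh, fun x => by
      rw [Equiv.Perm.mul_apply, hh' x, hg' (τ x), Equiv.Perm.mul_apply]⟩
  one_mem' := ⟨1, K.one_mem, fun _ => rfl⟩
  inv_mem' := by
    rintro σ ⟨g, hg, hg'⟩
    refine ⟨g⁻¹, K.inv_mem hg, fun x => ?_⟩
    rw [Equiv.Perm.inv_eq_iff_eq, hg' (σ⁻¹ x)]
    simp

theorem mem_induced {K : Subgroup (Equiv.Perm α)} {Φ : Finset α} {σ : Equiv.Perm ↥Φ} :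
    σ ∈ induced K Φ ↔ ∃ g ∈ K, ∀ x : ↥Φ, g (x : α) = (σ x : α) := Iff.rfl

/-- The conclusion of S0747. -/
def Good (G : Subgroup (Equiv.Perm α)) (k : ℕ) : Prop :=
  ∃ Δ : Finset α, Δ.card = k + 1 ∧
    ∀ σ : Equiv.Perm ↥Δ, σ ∈ alternatingGroup ↥Δ → ∃ g ∈ G, ∀ x : ↥Δ, g (x : α) = σ x

/-- The fixed points of a subgroup, as a finset. -/
noncomputable def fixF (P : Subgroup (Equiv.Perm α)) : Finset α :=
  letI := Classical.decPred (fun a : α => ∀ g ∈ P, g a = a)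
  Finset.univ.filter (fun a => ∀ g ∈ P, g a = a)

theorem mem_fixF {P : Subgroup (Equiv.Perm α)} {a : α} :
    a ∈ fixF P ↔ ∀ g ∈ P, g a = a := by
  unfold fixF
  simp

/-- `G ∩ N(P)`: the elements of `G` normalising `P`. -/
def nrm (G P : Subgroup (Equiv.Perm α)) : Subgroup (Equiv.Perm α) :=
  G ⊓ Subgroup.normalizer (P : Set (Equiv.Perm α))

theorem mem_nrm {G P : Subgroup (Equiv.Perm α)} {g : Equiv.Perm α} :
    g ∈ nrm G P ↔ g ∈ G ∧ ∀ h, h ∈ P ↔ g * h * g⁻¹ ∈ P := by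
  unfold nrm
  rw [Subgroup.mem_inf, Subgroup.mem_normalizer_iff]

/-- The points `δ'` outside `Γ` such that `Γ ∪ {δ'}` is a `G`-translate of `Γ ∪ {δ}`. -/
def cls (G : Subgroup (Equiv.Perm α)) (Γ : Finset α) (δ : α) : Set α :=
  {δ' | δ' ∉ Γ ∧ ∃ g ∈ G, ∀ a, g a ∈ insert δ' Γ ↔ a ∈ insert δ Γ}

theorem mem_cls {G : Subgroup (Equiv.Perm α)} {Γ : Finset α} {δ δ' : α} :
    δ' ∈ cls G Γ δ ↔ δ' ∉ Γ ∧ ∃ g ∈ G, ∀ a, g a ∈ insert δ' Γ ↔ a ∈ insert δ Γ := Iff.rfl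

/-- `Q` is a `2`-subgroup of the pointwise stabiliser of some `(k+1)`-set, of maximal order
among all such subgroups (over all `(k+1)`-sets). -/
def MaxQ (G : Subgroup (Equiv.Perm α)) (k : ℕ) (Q : Subgroup (Equiv.Perm α)) : Prop :=
  IsPGroup 2 Q ∧ (∃ Δ₀ : Finset α, Δ₀.card = k + 1 ∧ Q ≤ pstab G Δ₀) ∧
    ∀ (Δ' : Finset α) (Q' : Subgroup (Equiv.Perm α)), Δ'.card = k + 1 → Q' ≤ pstab G Δ' →
      IsPGroup 2 Q' → Nat.card Q' ≤ Nat.card Q

end Cfsg.Agent.Lead.LW
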