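import Mathlib

/-!
Definitions for Hall's Theorem 5.8.1 (statement S4221): a 4-fold transitive permutation group in which the
pointwise stabiliser of four points has odd order.  Everything is stated for a subgroup `G` of `Equiv.Perm α`
and explicit points.
-/

set_option autoImplicit false

namespace Cfsg.Agent.Lead.H581

variable {α : Type*} [Fintype α] [DecidableEq α]

/-- four pairwise distinct points -/
def Dist4 (a b c d : α) : Prop := a ≠ b ∧ a ≠ c ∧ a ≠ d ∧ b ≠ c ∧ b ≠ d ∧ c ≠ d

/-- the pointwise stabiliser of four points in `G` -/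
def stab4 (G : Subgroup (Equiv.Perm α)) (a b c d : α) : Subgroup (Equiv.Perm α) where
  carrier := {g | g ∈ G ∧ g a = a ∧ g b = b ∧ g c = c ∧ g d = d}
  mul_mem' := by
    rintro g k ⟨hg, ga, gb, gc, gd⟩ ⟨hk, ka, kb, kc, kd⟩
    refine ⟨G.mul_mem hg hk, ?_, ?_, ?_, ?_⟩ <;> simp [Equiv.Perm.mul_apply, *]
  one_mem' := ⟨G.one_mem, rfl, rfl, rfl, rfl⟩
  inv_mem' := by
    rintro g ⟨hg, ga, gb, gc, gd⟩
    refine ⟨G.inv_mem hg, ?_, ?_, ?_, ?_⟩
    · exact (Equiv.Perm.inv_eq_iff_eq.mpr ga.symm)
    · exact (Equiv.Perm.inv_eq_iff_eq.mpr gb.symm)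
    · exact (Equiv.Perm.inv_eq_iff_eq.mpr gc.symm)
    · exact (Equiv.Perm.inv_eq_iff_eq.mpr gd.symm)

theorem mem_stab4 {G : Subgroup (Equiv.Perm α)} {a b c d : α} {g : Equiv.Perm α} :
    g ∈ stab4 G a b c d ↔ g ∈ G ∧ g a = a ∧ g b = b ∧ g c = c ∧ g d = d := Iff.rfl

/-- The hypothesis of Hall's theorem, in explicit form: `G` is transitive on ordered quadruples of distinct points
and every pointwise stabiliser of four distinct points has the same odd order `h`. -/
structure Hyp (G : Subgroup (Equiv.Perm α)) (h : ℕ) : Prop where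
  trans : ∀ a b c d a' b' c' d' : α, Dist4 a b c d → Dist4 a' b' c' d' →
    ∃ g ∈ G, g a = a' ∧ g b = b' ∧ g c = c' ∧ g d = d'
  card : ∀ a b c d : α, Dist4 a b c d → Nat.card (stab4 G a b c d) = h
  odd : Odd h

/-- the involutions of `G` having the transpositions `(a b)` and `(c d)` -/
def invA (G : Subgroup (Equiv.Perm α)) (a b c d : α) : Set (Equiv.Perm α) :=
  {u | u ∈ G ∧ u * u = 1 ∧ u a = b ∧ u c = d}

/-- the involutions of `G` having the transposition `(a b)` and fixing `c` and `d` -/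
def invB (G : Subgroup (Equiv.Perm α)) (a b c d : α) : Set (Equiv.Perm α) :=
  {u | u ∈ G ∧ u * u = 1 ∧ u a = b ∧ u c = c ∧ u d = d}

/-- the number of fixed points of a permutation -/
def nfix (u : Equiv.Perm α) : ℕ := (Finset.univ.filter (fun x => u x = x)).card

/-- the number of fixed points that every involution of `G` turns out to have: `2` in even degree, `3` in odd degree -/
def f0 (α : Type*) [Fintype α] : ℕ := if Even (Fintype.card α) then 2 else 3

/-- the points on which the four-group `{1, y₁, y₂, y₁ y₂}` acts regularly -/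
def regPts (y₁ y₂ : Equiv.Perm α) : Finset α :=
  Finset.univ.filter (fun x => y₁ x ≠ x ∧ y₂ x ≠ x ∧ (y₁ * y₂) x ≠ x)

end Cfsg.Agent.Lead.H581
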