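import Mathlib
import Cfsg.Agent.Lead.H581Defs
import Cfsg.Agent.Helper48.H581A0
import Cfsg.Agent.Helper31.H581A1
import Cfsg.Agent.Helper50.H581A2
import Cfsg.Agent.Helper55.H581A6b
import Cfsg.Agent.Helper48.H581A6c
import Cfsg.Agent.Helper47.H581A4
import Cfsg.Agent.Helper93.H581A7b
import Cfsg.Agent.Helper91.H581A7c
import Cfsg.Agent.Helper20.H581E0b
import Cfsg.Agent.Helper31.H581E0
import Cfsg.Agent.Helper91.H581A5
import Cfsg.Agent.Helper47.H581E3a
import Cfsg.Agent.Helper50.H581E3c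
import Cfsg.Agent.Helper93.H581P1

set_option autoImplicit false

namespace Cfsg.Agent.Lead.H581

open Equiv

variable {α : Type*} [Fintype α] [DecidableEq α]

theorem arith_odd (n i i' C q r : ℕ) (hi : 0 < i) (hi' : 0 < i') (hq : 0 < q)
    (h1 : i * 6 = i' * (n - 5)) (h2 : C * i' = 4 * i * q) (h3 : C ∣ q * r) (hr : r + 7 = n) :
    n = 7 ∨ n = 11 := by
  obtain ⟨k, hk⟩ := h3
  have hn5 : n - 5 = r + 2 := by omega
  rw [hn5] at h1
  -- r * i' = 4 * i * k
  have e1 : r * i' = 4 * i * k := by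
    have : q * (r * i') = q * (4 * i * k) := by
      calc q * (r * i') = (q * r) * i' := by ring
        _ = (C * k) * i' := by rw [hk]
        _ = (C * i') * k := by ring
        _ = (4 * i * q) * k := by rw [h2]
        _ = q * (4 * i * k) := by ring
    exact Nat.eq_of_mul_eq_mul_left hq this
  -- 3 r = 2 k (r+2)
  have e2 : 3 * r = 2 * k * (r + 2) := by
    have : (2 * i) * (3 * r) = (2 * i) * (2 * k * (r + 2)) := by
      calc (2 * i) * (3 * r) = r * (i * 6) := by ring
        _ = r * (i' * (r + 2)) := by rw [h1]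
        _ = (r * i') * (r + 2) := by ring
        _ = (4 * i * k) * (r + 2) := by rw [e1]
        _ = (2 * i) * (2 * k * (r + 2)) := by ring
    exact Nat.eq_of_mul_eq_mul_left (by omega) this
  rcases Nat.eq_zero_or_pos k with hk0 | hk0
  · subst hk0; left; omega
  · right
    have hk1 : k = 1 := by
      by_contra hne
      have hk2 : 2 ≤ k := by omega
      nlinarith
    subst hk1; omega

theorem arith_even (n i i' C q r : ℕ) (hi : 0 < i) (hi' : 0 < i') (hq : 0 < q)
    (h1 : i * 2 = i' * (n - 4)) (h2 : C * i' = 4 * i * q) (h3 : C ∣ q * r) (hr : r + 6 = n) :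
    n = 6 := by
  obtain ⟨k, hk⟩ := h3
  have hn5 : n - 4 = r + 2 := by omega
  rw [hn5] at h1
  have e1 : r * i' = 4 * i * k := by
    have : q * (r * i') = q * (4 * i * k) := by
      calc q * (r * i') = (q * r) * i' := by ring
        _ = (C * k) * i' := by rw [hk]
        _ = (C * i') * k := by ring
        _ = (4 * i * q) * k := by rw [h2]
        _ = q * (4 * i * k) := by ring
    exact Nat.eq_of_mul_eq_mul_left hq this
  have e2 : r = 2 * k * (r + 2) := by
    have : (2 * i) * r = (2 * i) * (2 * k * (r + 2)) := by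
      calc (2 * i) * r = r * (i * 2) := by ring
        _ = r * (i' * (r + 2)) := by rw [h1]
        _ = (r * i') * (r + 2) := by ring
        _ = (4 * i * k) * (r + 2) := by rw [e1]
        _ = (2 * i) * (2 * k * (r + 2)) := by ring
    exact Nat.eq_of_mul_eq_mul_left (by omega) this
  rcases Nat.eq_zero_or_pos k with hk0 | hk0
  · subst hk0; omega
  · exfalso; nlinarith


theorem exists_dist4 (hn : 4 ≤ Fintype.card α) : ∃ a b c d : α, Dist4 a b c d := by
  have e : Fin 4 ↪ α := by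
    have : Fintype.card (Fin 4) ≤ Fintype.card α := by simpa using hn
    exact (Function.Embedding.nonempty_of_card_le this).some
  refine ⟨e 0, e 1, e 2, e 3, ?_⟩
  refine ⟨?_, ?_, ?_, ?_, ?_, ?_⟩ <;> intro h <;> have := e.injective h <;> revert this <;> decide

theorem count_rel (G : Subgroup (Perm α)) (h : ℕ) (H : Hyp G h) (hn : 6 ≤ Fintype.card α) (a b c d : α)
    (hd : Dist4 a b c d) :
    (invA G a b c d).ncard * (f0 α * (f0 α - 1)) = (invB G a b c d).ncard * (Fintype.card α - f0 α - 2) := by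
  have hA := Cfsg.Agent.Helper55.H581A6b.count_A G h H hn a b c d hd
  have hB := Cfsg.Agent.Helper48.H581A6c.count_B G h H hn a b c d hd
  set J := {u : Perm α | u ∈ G ∧ u * u = 1 ∧ u ≠ 1}.ncard
  set n := Fintype.card α
  set N := n * (n - 1) * (n - 2) * (n - 3) with hN
  have hNpos : 0 < N := by
    have h1 : 0 < n := by omega
    have h2 : 0 < n - 1 := by omega
    have h3 : 0 < n - 2 := by omega
    have h4 : 0 < n - 3 := by omega
    positivity
  have : N * ((invA G a b c d).ncard * (f0 α * (f0 α - 1))) =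
      N * ((invB G a b c d).ncard * (n - f0 α - 2)) := by
    calc N * ((invA G a b c d).ncard * (f0 α * (f0 α - 1)))
        = (N * (invA G a b c d).ncard) * (f0 α * (f0 α - 1)) := by ring
      _ = (J * ((n - f0 α) * (n - f0 α - 2))) * (f0 α * (f0 α - 1)) := by rw [hA]
      _ = (J * ((n - f0 α) * (f0 α * (f0 α - 1)))) * (n - f0 α - 2) := by ring
      _ = (N * (invB G a b c d).ncard) * (n - f0 α - 2) := by rw [hB]
      _ = N * ((invB G a b c d).ncard * (n - f0 α - 2)) := by ring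
  exact Nat.eq_of_mul_eq_mul_left hNpos this

theorem degree_cases (G : Subgroup (Perm α)) (h : ℕ) (H : Hyp G h) (hn : 6 ≤ Fintype.card α) :
    Fintype.card α = 6 ∨ Fintype.card α = 7 ∨ Fintype.card α = 11 := by
  obtain ⟨a, b, c, d, hd⟩ := exists_dist4 (α := α) (by omega)
  obtain ⟨y₁, hy₁, y₂, hy₂, h1, h2, hc, e1, e1', e2, e3, e4, e5, e6, e6'⟩ := Cfsg.Agent.Helper50.H581A2.exists_V1 G h H a b c d hd
  have hrel := count_rel G h H hn a b c d hd
  have hreg := Cfsg.Agent.Helper47.H581A4.reg_card G h H hn a b c d hd y₁ y₂ hy₁ hy₂ h1 h2 hc e1 e2 e3 e4 e5 e6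
  -- positivity of the two counts
  have hiB : 0 < (invB G a b c d).ncard := by
    rw [Set.ncard_pos (Set.toFinite _)]
    exact ⟨y₁, hy₁, h1, e1, e2, e3⟩
  have hiA : 0 < (invA G a b c d).ncard := by
    rw [Set.ncard_pos (Set.toFinite _)]
    refine ⟨y₁ * y₂, G.mul_mem hy₁ hy₂, ?_, ?_, ?_⟩
    · calc y₁ * y₂ * (y₁ * y₂) = y₁ * (y₂ * y₁) * y₂ := by group
        _ = y₁ * (y₁ * y₂) * y₂ := by rw [hc]
        _ = (y₁ * y₁) * (y₂ * y₂) := by group
        _ = 1 := by rw [h1, h2, mul_one]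
    · rw [Perm.mul_apply, e4, e1]
    · rw [Perm.mul_apply, e6, e3]
  rcases (regPts y₁ y₂).eq_empty_or_nonempty with hemp | ⟨x₀, hx₀⟩
  · rw [hemp, Finset.card_empty] at hreg
    split_ifs at hreg with hev
    · left; omega
    · right; left; omega
  · set q := Nat.card ↥(stab4 G x₀ (y₁ x₀) (y₂ x₀) ((y₁ * y₂) x₀) ⊓
        Subgroup.centralizer ({y₁, y₂} : Set (Perm α))) with hq
    have hqpos : 0 < q := Nat.card_pos
    have hrel0 := Cfsg.Agent.Helper93.H581A7b.cent_orbit_rel G h H a b c d hd y₁ y₂ hy₁ hy₂ h1 h2 hc e1 e2 e3 e4 e5 e6 x₀ hx₀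
    have hall : ∀ x ∈ regPts y₁ y₂,
        Nat.card ↥(stab4 G x (y₁ x) (y₂ x) ((y₁ * y₂) x) ⊓
          Subgroup.centralizer ({y₁, y₂} : Set (Perm α))) = q := by
      intro x hx
      have hrelx := Cfsg.Agent.Helper93.H581A7b.cent_orbit_rel G h H a b c d hd y₁ y₂ hy₁ hy₂ h1 h2 hc e1 e2 e3 e4 e5 e6 x hx
      rw [hrel0] at hrelx
      have : 0 < 4 * (invA G a b c d).ncard := by omega
      exact (Nat.eq_of_mul_eq_mul_left this hrelx).symm
    have hdvd := Cfsg.Agent.Helper91.H581A7c.cent_dvd G y₁ y₂ hy₁ hy₂ q hall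
    by_cases hev : Even (Fintype.card α)
    · rw [if_pos hev] at hreg
      have hf : f0 α = 2 := by unfold f0; rw [if_pos hev]
      rw [hf] at hrel
      left
      refine arith_even (Fintype.card α) (invA G a b c d).ncard (invB G a b c d).ncard _ q
        (regPts y₁ y₂).card hiA hiB hqpos ?_ hrel0 hdvd hreg
      rw [show Fintype.card α - 4 = Fintype.card α - 2 - 2 by omega, ← hrel]
    · rw [if_neg hev] at hreg
      have hf : f0 α = 3 := by unfold f0; rw [if_neg hev]
      rw [hf] at hrel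
      right
      refine arith_odd (Fintype.card α) (invA G a b c d).ncard (invB G a b c d).ncard _ q
        (regPts y₁ y₂).card hiA hiB hqpos ?_ hrel0 hdvd hreg
      rw [show Fintype.card α - 5 = Fintype.card α - 3 - 2 by omega, ← hrel]


theorem stab4_odd (G : Subgroup (Perm α)) (h : ℕ) (H : Hyp G h) (a b c d : α) (hd : Dist4 a b c d) :
    Odd (Nat.card (stab4 G a b c d)) := by rw [H.card a b c d hd]; exact H.odd

theorem eq_alternating_of_card (G : Subgroup (Perm α)) (hcard : 2 * Nat.card G = (Fintype.card α).factorial) :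
    G = alternatingGroup α := by
  apply Equiv.Perm.eq_alternatingGroup_of_index_eq_two
  have h1 : Nat.card G * G.index = Nat.card (Perm α) := Subgroup.card_mul_index G
  rw [Nat.card_perm, Nat.card_eq_fintype_card (α := α), ← hcard] at h1
  have hpos : 0 < Nat.card G := Nat.card_pos
  have : Nat.card G * G.index = Nat.card G * 2 := by rw [h1]; ring
  exact Nat.eq_of_mul_eq_mul_left hpos this

theorem case_six (G : Subgroup (Perm α)) (h : ℕ) (H : Hyp G h) (hn : Fintype.card α = 6) :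
    G = alternatingGroup α := by
  obtain ⟨a, b, c, d, hd⟩ := exists_dist4 (α := α) (by omega)
  have hdvd := Cfsg.Agent.Helper20.H581E0b.stab4_card_dvd G a b c d hd
  rw [H.card a b c d hd, hn] at hdvd
  have hh : h = 1 := by
    have hodd := H.odd
    have hle : h ≤ 2 := Nat.le_of_dvd (by decide) hdvd
    rcases hodd with ⟨k, hk⟩
    omega
  have hc := Cfsg.Agent.Helper31.H581E0.card_eq G h H (by omega)
  rw [hn, hh] at hc
  apply eq_alternating_of_card
  rw [hc, hn]; decide

theorem case_seven (G : Subgroup (Perm α)) (h : ℕ) (H : Hyp G h) (hn : Fintype.card α = 7) :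
    G = alternatingGroup α := by
  obtain ⟨a, b, c, d, hd⟩ := exists_dist4 (α := α) (by omega)
  have hdvd := Cfsg.Agent.Helper20.H581E0b.stab4_card_dvd G a b c d hd
  rw [H.card a b c d hd, hn] at hdvd
  have hodd := H.odd
  have hh : h = 1 ∨ h = 3 := by
    have hle : h ≤ 6 := Nat.le_of_dvd (by decide) hdvd
    rcases hodd with ⟨k, hk⟩
    have : k ≤ 2 := by omega
    interval_cases k
    · left; omega
    · right; omega
    · exfalso; subst hk; revert hdvd; decide
  have hh3 : h = 3 := by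
    rcases hh with h1 | h3
    · exfalso
      obtain ⟨y₁, hy₁, y₂, hy₂, i1, i2, hc, e1, e1', e2, e3, e4, e5, e6, e6'⟩ := Cfsg.Agent.Helper50.H581A2.exists_V1 G h H a b c d hd
      have hrel := count_rel G h H (by omega) a b c d hd
      have hf : f0 α = 3 := by
        unfold f0; rw [if_neg]; rw [hn]; decide
      rw [hf, hn] at hrel
      have hB := Cfsg.Agent.Helper91.H581A5.invB_card G h H a b c d hd y₁ ⟨hy₁, i1, e1, e2, e3⟩
      have hA := Cfsg.Agent.Helper91.H581A5.invA_card G h H a b c d hd (y₁ * y₂) (by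
        refine ⟨G.mul_mem hy₁ hy₂, ?_, ?_, ?_⟩
        · calc y₁ * y₂ * (y₁ * y₂) = y₁ * (y₂ * y₁) * y₂ := by group
            _ = y₁ * (y₁ * y₂) * y₂ := by rw [hc]
            _ = (y₁ * y₁) * (y₂ * y₂) := by group
            _ = 1 := by rw [i1, i2, mul_one]
        · rw [Perm.mul_apply, e4, e1]
        · rw [Perm.mul_apply, e6, e3])
      rw [h1] at hA hB
      have hA1 : (invA G a b c d).ncard = 1 := Nat.eq_one_of_mul_eq_one_right hA
      have hB1 : (invB G a b c d).ncard = 1 := Nat.eq_one_of_mul_eq_one_right hB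
      rw [hA1, hB1] at hrel
      omega
    · exact h3
  have hc := Cfsg.Agent.Helper31.H581E0.card_eq G h H (by omega)
  rw [hn, hh3] at hc
  apply eq_alternating_of_card
  rw [hc, hn]; decide

theorem case_eleven (G : Subgroup (Perm α)) (h : ℕ) (H : Hyp G h) (hn : Fintype.card α = 11) :
    Nat.card G = 7920 := by
  obtain ⟨a, b, c, d, hd⟩ := exists_dist4 (α := α) (by omega)
  obtain ⟨hab, hac, had, hbc, hbd, hcd⟩ := hd
  have hd : Dist4 a b c d := ⟨hab, hac, had, hbc, hbd, hcd⟩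
  obtain ⟨z₁, hz₁, z₂, hz₂, i1, i2, hc, e1, e2, e3, e4, e5, e6, e7, e8⟩ := Cfsg.Agent.Helper50.H581A2.exists_V2 G h H a b c d hd
  have hz12 : z₁ * z₂ * (z₁ * z₂) = 1 := by
    calc z₁ * z₂ * (z₁ * z₂) = z₁ * (z₂ * z₁) * z₂ := by group
      _ = z₁ * (z₁ * z₂) * z₂ := by rw [hc]
      _ = (z₁ * z₁) * (z₂ * z₂) := by group
      _ = 1 := by rw [i1, i2, mul_one]
  have inv1 : z₁⁻¹ = z₁ := inv_eq_of_mul_eq_one_left i1
  have inv2 : z₂⁻¹ = z₂ := inv_eq_of_mul_eq_one_left i2
  -- the three centralisers are trivial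
  have key : ∀ (a' b' c' d' : α), Dist4 a' b' c' d' → stab4 G a' b' c' d' = stab4 G a b c d →
      ∀ z ∈ invA G a' b' c' d',
        Nat.card ↥(stab4 G a b c d ⊓ Subgroup.centralizer ({z} : Set (Perm α))) = 1 := by
    intro a' b' c' d' hd' hs z hz
    rcases Cfsg.Agent.Helper47.H581E3a.cent_eleven G h H hn a' b' c' d' hd' z hz with h1 | ⟨g, hg, h3⟩
    · rw [← hs]; exact h1
    · exact (Cfsg.Agent.Helper50.H581E3c.no_three_cycle G h H (by omega) g hg h3).elim
  have k1 := key a b c d hd rfl z₁ ⟨hz₁, i1, e1, e3⟩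
  have k2 := key a c b d ⟨hac, hab, had, hbc.symm, hcd, hbd⟩
    (by ext g; simp only [mem_stab4]; tauto) z₂ ⟨hz₂, i2, e5, e7⟩
  have k3 := key a d b c ⟨had, hab, hac, hbd.symm, hcd.symm, hbc⟩
    (by ext g; simp only [mem_stab4]; tauto) (z₁ * z₂) ⟨G.mul_mem hz₁ hz₂, hz12, by
      rw [Perm.mul_apply, e5, e3], by rw [Perm.mul_apply, e7, e4]⟩
  -- normalisation
  have hn1 : ∀ y ∈ stab4 G a b c d, z₁ * y * z₁⁻¹ ∈ stab4 G a b c d := by
    rintro y ⟨hy, ya, yb, yc, yd⟩
    rw [inv1]
    refine ⟨G.mul_mem (G.mul_mem hz₁ hy) hz₁, ?_, ?_, ?_, ?_⟩ <;>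
      simp only [Perm.mul_apply, e1, e2, e3, e4, ya, yb, yc, yd]
  have hn2 : ∀ y ∈ stab4 G a b c d, z₂ * y * z₂⁻¹ ∈ stab4 G a b c d := by
    rintro y ⟨hy, ya, yb, yc, yd⟩
    rw [inv2]
    refine ⟨G.mul_mem (G.mul_mem hz₂ hy) hz₂, ?_, ?_, ?_, ?_⟩ <;>
      simp only [Perm.mul_apply, e5, e6, e7, e8, ya, yb, yc, yd]
  have hz1ne : z₁ ≠ 1 := by
    intro h1; rw [h1] at e1; exact hab (by simpa using e1)
  have hz2ne : z₂ ≠ 1 := by
    intro h1; rw [h1] at e5; exact hac (by simpa using e5)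
  have hz12ne : z₁ ≠ z₂ := by
    intro h1; rw [h1, e5] at e1; exact hbc e1.symm
  have bw := Cfsg.Agent.Helper93.H581P1.bw_exact (stab4 G a b c d) (stab4_odd G h H a b c d hd) z₁ z₂ i1 i2 hc hz1ne hz2ne hz12ne hn1 hn2
  rw [k1, k2, k3, H.card a b c d hd] at bw
  have hh : h = 1 := Nat.eq_one_of_mul_eq_one_right (by simpa using bw)
  have hcard := Cfsg.Agent.Helper31.H581E0.card_eq G h H (by omega)
  rw [hn, hh] at hcard
  rw [hcard]

theorem main_h581 (G : Subgroup (Perm α)) (hG : MulAction.IsMultiplyPretransitive G α 4)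
    (x : Fin 4 ↪ α) (hodd : Odd (Nat.card (MulAction.stabilizer G x))) :
    ((Fintype.card α = 4 ∨ Fintype.card α = 5) ∧ G = ⊤) ∨
      ((Fintype.card α = 6 ∨ Fintype.card α = 7) ∧ G = alternatingGroup α) ∨
        (Fintype.card α = 11 ∧ Nat.card G = 7920) := by
  obtain ⟨h, H⟩ := Cfsg.Agent.Helper48.H581A0.hyp_of_pretransitive G hG x hodd
  have hn4 : 4 ≤ Fintype.card α := by
    have := Fintype.card_le_of_embedding x
    simpa using this
  by_cases hn6 : 6 ≤ Fintype.card α
  · rcases degree_cases G h H hn6 with h6 | h7 | h11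
    · right; left; exact ⟨Or.inl h6, case_six G h H h6⟩
    · right; left; exact ⟨Or.inr h7, case_seven G h H h7⟩
    · right; right; exact ⟨h11, case_eleven G h H h11⟩
  · have h45 : Fintype.card α = 4 ∨ Fintype.card α = 5 := by omega
    left; exact ⟨h45, Cfsg.Agent.Helper31.H581A1.eq_top_of_card_le_five G h H h45⟩

end Cfsg.Agent.Lead.H581
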