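import Cfsg.Agent.Lead.LWDefs
import Cfsg.Agent.Helper42.LWG4
import Cfsg.Agent.Helper88.LWA10
import Cfsg.Agent.Helper39.LWB5
import Cfsg.Agent.Helper31.LWC9

/-!
# S0747: a `k`-transitive group (`4 ≤ k < n`) induces at least `Alt` on some `(k+1)`-set

Top-level assembly of CALL S0747 (strong induction on the degree; the three cases are
`good_of_odd` (odd `k`-point stabiliser: S4221 + S0417), `good_of_fix` (Witt + induction),
`good_of_nofix` (maximal 2-subgroup of a `(k+1)`-point stabiliser + dihedral argument)).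
-/

set_option autoImplicit false

namespace Cfsg.Agent.Lead.LWMain

open Cfsg.Agent.Lead.LW

universe u

theorem main_lw : ∀ (n : ℕ) (α : Type u) [Fintype α] [DecidableEq α]
    (G : Subgroup (Equiv.Perm α)) (k : ℕ), Fintype.card α = n → 4 ≤ k → k < n →
    KTrans G k → Good G k := by
  intro n
  induction n using Nat.strong_induction_on with
  | _ n ih =>
  intro α _ _ G k hn hk hkn hG
  subst hn
  obtain ⟨Γ, -, hΓ⟩ := Finset.exists_subset_card_eq (s := (Finset.univ : Finset α))
    (n := k) (by rw [Finset.card_univ]; exact hkn.le)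
  obtain ⟨P, hP, hcard⟩ := Cfsg.Agent.Helper42.LWG4.exists_syl2 (pstab G Γ)
  by_cases hodd : Odd (Nat.card (pstab G Γ))
  · exact Cfsg.Agent.Helper88.LWA10.good_of_odd G k hk hkn hG Γ hΓ hodd
  · by_cases hfix : ∃ δ, δ ∉ Γ ∧ ∀ g ∈ P, g δ = δ
    · obtain ⟨δ, hδ, hfix⟩ := hfix
      have hne : P ≠ ⊥ := by
        rintro rfl
        rw [Subgroup.card_bot] at hcard
        have h0 : (Nat.card (pstab G Γ)).factorization 2 = 0 := by
          by_contra h
          have : 2 ≤ 2 ^ (Nat.card (pstab G Γ)).factorization 2 :=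
            le_self_pow₀ (by norm_num) h
          omega
        have hpos : Nat.card (pstab G Γ) ≠ 0 := Nat.card_pos.ne'
        rcases (Nat.factorization_eq_zero_iff _ _).1 h0 with h | h | h
        · exact h (by norm_num)
        · exact hodd (Nat.odd_iff.2 (by omega))
        · exact hpos h
      refine Cfsg.Agent.Helper39.LWB5.good_of_fix G k hG Γ hΓ P hP hcard hne δ hδ hfix ?_
      intro Φ hΦ hkΦ H hH
      exact ih Φ.card hΦ ↥Φ H k (Fintype.card_coe Φ) hk hkΦ hH
    · have hnofix : ∀ δ, δ ∉ Γ → ∃ g ∈ P, g δ ≠ δ := by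
        intro δ hδ
        by_contra hcon
        exact hfix ⟨δ, hδ, fun g hg => by
          by_contra hne
          exact hcon ⟨g, hg, hne⟩⟩
      exact Cfsg.Agent.Helper31.LWC9.good_of_nofix G k hkn hG Γ hΓ P hP hcard hnofix

end Cfsg.Agent.Lead.LWMain
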