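import Mathlib
import Cfsg.Agent.S0711

set_option autoImplicit false

namespace Cfsg.Agent.Lead

open Equiv

section
variable {α : Type*} [Fintype α] [DecidableEq α]

/-- A `4`-transitive group of degree `9` in which no non-identity element has support of size
at most `5` has order `9 * 8 * 7 * 6`. -/
theorem deg9_card_eq (G : Subgroup (Perm α)) (h9 : Fintype.card α = 9)
    (hG : MulAction.IsMultiplyPretransitive G α 4)
    (hno : ∀ g ∈ G, g ≠ 1 → 5 < g.support.card) : Nat.card G = 3024 := by
  obtain ⟨x0⟩ : Nonempty (Fin 4 ↪ α) := Function.Embedding.nonempty_of_card_le (by simp [h9])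
  have hpre : MulAction.IsPretransitive G (Fin 4 ↪ α) := hG
  have hbij : Function.Bijective (fun g : G => g • x0) := by
    constructor
    · intro g h hgh
      have hfix : ∀ i, ((g⁻¹ * h : G) : Perm α) (x0 i) = x0 i := by
        intro i
        have h1 := congrArg (fun e : Fin 4 ↪ α => e i) hgh
        have h2 : (g : Perm α) (x0 i) = (h : Perm α) (x0 i) := h1
        simp only [Subgroup.coe_mul, Subgroup.coe_inv, Perm.mul_apply]
        rw [← h2]; simp
      by_contra hne
      have h1 : ((g⁻¹ * h : G) : Perm α) ≠ 1 := by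
        intro h1
        apply hne
        have h2 : g⁻¹ * h = 1 := Subtype.ext h1
        exact inv_mul_eq_one.mp h2
      have h5 := hno _ (g⁻¹ * h).2 h1
      have hsub : ((g⁻¹ * h : G) : Perm α).support ⊆ Finset.univ \ Finset.univ.image x0 := by
        intro y hy
        rw [Finset.mem_sdiff]
        refine ⟨Finset.mem_univ _, fun hy' => ?_⟩
        obtain ⟨i, -, rfl⟩ := Finset.mem_image.mp hy'
        exact (Perm.mem_support.mp hy) (hfix i)
      have hc := Finset.card_le_card hsub
      rw [Finset.card_sdiff_of_subset (Finset.subset_univ _), Finset.card_univ, h9,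
        Finset.card_image_of_injective _ x0.injective, Finset.card_univ, Fintype.card_fin] at hc
      omega
    · intro y; exact MulAction.exists_smul_eq G x0 y
  rw [Nat.card_eq_of_bijective _ hbij, Nat.card_eq_fintype_card, Fintype.card_embedding_eq, h9,
    Fintype.card_fin]
  rfl


/-- In such a group an element commuting with a `7`-cycle is a power of it. -/
theorem deg9_commute_mem_zpowers (G : Subgroup (Perm α)) (h9 : Fintype.card α = 9)
    (hno : ∀ g ∈ G, g ≠ 1 → 5 < g.support.card) {σ c : Perm α} (hσ : σ ∈ G) (hc : c ∈ G)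
    (hcyc : σ.IsCycle) (h7 : σ.support.card = 7) (hcomm : Commute c σ) :
    c ∈ Subgroup.zpowers σ := by
  obtain ⟨x0, hx0', -⟩ := id hcyc
  have hcx : σ (c x0) ≠ c x0 := by
    intro h
    apply hx0'
    have h3 : c (σ x0) = c x0 := by
      have h2 := congrArg (fun f : Perm α => f x0) hcomm.eq
      simp only [Perm.mul_apply] at h2
      rw [h2, h]
    exact c.injective h3
  obtain ⟨i, hi⟩ := hcyc.exists_zpow_eq hx0' hcx
  set τ : Perm α := (σ ^ i)⁻¹ * c with hτ
  have hτG : τ ∈ G := G.mul_mem (G.inv_mem (G.zpow_mem hσ i)) hc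
  have hτcomm : Commute τ σ := (((Commute.refl σ).zpow_left i).inv_left).mul_left hcomm
  have hτx0 : τ x0 = x0 := by
    simp only [hτ, Perm.mul_apply]
    rw [← hi]; simp
  have hτfix : ∀ y ∈ σ.support, τ y = y := by
    intro y hy
    obtain ⟨j, hj⟩ := hcyc.exists_zpow_eq hx0' (Perm.mem_support.mp hy)
    rw [← hj]
    have h2 := congrArg (fun f : Perm α => f x0) (hτcomm.zpow_right j).eq
    simp only [Perm.mul_apply] at h2
    rw [h2, hτx0]
  have hτ1 : τ = 1 := by
    by_contra hne
    have h5 := hno τ hτG hne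
    have hsub : τ.support ⊆ Finset.univ \ σ.support := by
      intro y hy
      rw [Finset.mem_sdiff]
      exact ⟨Finset.mem_univ _, fun hy' => (Perm.mem_support.mp hy) (hτfix y hy')⟩
    have hc := Finset.card_le_card hsub
    rw [Finset.card_sdiff_of_subset (Finset.subset_univ _), Finset.card_univ, h9, h7] at hc
    omega
  have hci : c = σ ^ i := by
    have h1 := hτ1
    rw [hτ, inv_mul_eq_one] at h1
    exact h1.symm
  rw [hci]
  exact Subgroup.zpow_mem_zpowers σ i

/-- A `4`-transitive permutation group of degree `9` contains the alternating group. -/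
theorem alternatingGroup_le_of_four_transitive_card_nine
    (G : Subgroup (Perm α)) (h9 : Fintype.card α = 9)
    (hG : MulAction.IsMultiplyPretransitive G α 4) : alternatingGroup α ≤ G := by
  by_cases hex : ∃ g ∈ G, g ≠ 1 ∧ g.support.card ≤ 5
  · obtain ⟨g, hg, hg1, hs⟩ := hex
    exact (Cfsg.Agent.S0711.result G (k := 4) (by norm_num) (by omega) hG g hg hg1 (by omega)).2
  exfalso
  push Not at hex
  have hno : ∀ g ∈ G, g ≠ 1 → 5 < g.support.card := hex
  have hcard := deg9_card_eq G h9 hG hno
  have : Fact (Nat.Prime 7) := ⟨by norm_num⟩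
  have : Finite G := Nat.finite_of_card_ne_zero (by rw [hcard]; norm_num)
  obtain ⟨P⟩ : Nonempty (Sylow 7 G) := Sylow.nonempty
  have hP7 : Nat.card P = 7 := by
    obtain ⟨n, hn⟩ := IsPGroup.iff_card.mp P.isPGroup'
    have hd1 : 7 ∣ Nat.card P := P.dvd_card_of_dvd_card (by rw [hcard]; norm_num)
    have hd2 : Nat.card P ∣ 3024 := hcard ▸ Subgroup.card_subgroup_dvd_card (P : Subgroup G)
    rw [hn] at hd1 hd2 ⊢
    have hn1 : n ≠ 0 := by rintro rfl; norm_num at hd1
    have hn2 : n < 2 := by
      by_contra h
      push Not at h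
      have h49 : 7 ^ 2 ∣ 3024 := (pow_dvd_pow 7 h).trans hd2
      norm_num at h49
    have hn' : n = 1 := by omega
    rw [hn']; norm_num
  have hcycP : IsCyclic P := isCyclic_of_prime_card hP7
  obtain ⟨s, hs1⟩ : ∃ s : P, s ≠ 1 := by
    have : Nontrivial P := (Finite.one_lt_card_iff_nontrivial).mp (by rw [hP7]; norm_num)
    exact exists_ne 1
  have hsord : orderOf s = 7 := by
    have hd : orderOf s ∣ 7 := (orderOf_dvd_natCard s).trans (dvd_of_eq hP7)
    rcases (Nat.dvd_prime (by norm_num : Nat.Prime 7)).mp hd with h | h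
    · exact absurd (orderOf_eq_one_iff.mp h) hs1
    · exact h
  set σ : Perm α := ((s : G) : Perm α) with hσ
  have hσord : orderOf σ = 7 := by rw [hσ, Subgroup.orderOf_coe, Subgroup.orderOf_coe, hsord]
  have hσG : σ ∈ G := (s : G).2
  have hcyc : σ.IsCycle :=
    Perm.isCycle_of_prime_order' (by rw [hσord]; norm_num) (by rw [hσord, h9]; norm_num)
  have hσ7 : σ.support.card = 7 := by rw [← hcyc.orderOf, hσord]
  have hCP : Subgroup.centralizer ((P : Subgroup G) : Set G) ≤ (P : Subgroup G) := by
    intro c hc
    have hcs : (s : G) * c = c * (s : G) := hc (s : G) s.2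
    have hcs' : Commute (c : Perm α) σ := by
      have h1 := congrArg (Subtype.val) hcs
      exact h1.symm
    have hmem := deg9_commute_mem_zpowers G h9 hno hσG c.2 hcyc hσ7 hcs'
    obtain ⟨i, hi⟩ := Subgroup.mem_zpowers_iff.mp hmem
    have hci : c = (s : G) ^ i := Subtype.ext (by rw [← hi]; simp [hσ])
    rw [hci]
    exact (P : Subgroup G).zpow_mem s.2 i
  have hPC : (P : Subgroup G) ≤ Subgroup.centralizer ((P : Subgroup G) : Set G) := by
    intro x hx
    rw [Subgroup.mem_centralizer_iff]
    intro y hy
    obtain ⟨g, hg⟩ := hcycP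
    obtain ⟨a, ha⟩ := Subgroup.mem_zpowers_iff.mp (hg ⟨x, hx⟩)
    obtain ⟨b, hb⟩ := Subgroup.mem_zpowers_iff.mp (hg ⟨y, hy⟩)
    have hx' : x = (g : G) ^ a := by
      have := congrArg Subtype.val ha
      simpa using this.symm
    have hy' : y = (g : G) ^ b := by
      have := congrArg Subtype.val hb
      simpa using this.symm
    rw [hx', hy', ← zpow_add, ← zpow_add, add_comm]
  have hCeq : Subgroup.centralizer ((P : Subgroup G) : Set G) = (P : Subgroup G) :=
    le_antisymm hCP hPC
  have key := Subgroup.card_dvd_of_injective _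
    (QuotientGroup.kerLift_injective (P : Subgroup G).normalizerMonoidHom)
  rw [Subgroup.normalizerMonoidHom_ker, ← Subgroup.index, ← Subgroup.relIndex,
    IsCyclic.card_mulAut, hP7] at key
  have htot : Nat.totient 7 = 6 := by
    rw [Nat.totient_prime (by norm_num : Nat.Prime 7)]
  rw [htot, hCeq] at key
  have h1 := Subgroup.relIndex_mul_index (Subgroup.le_normalizer (H := (P : Subgroup G)))
  have h2 := Subgroup.card_mul_index (P : Subgroup G)
  rw [hP7, hcard] at h2
  have h3 : (P : Subgroup G).index = 432 := by omega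
  have h4 := card_sylow_modEq_one 7 G
  rw [Sylow.card_eq_index_normalizer P] at h4
  rw [h3] at h1
  generalize (P : Subgroup G).relIndex (Subgroup.normalizer ((P : Subgroup G) : Set G)) = d
    at key h1
  generalize (Subgroup.normalizer ((P : Subgroup G) : Set G)).index = m at h1 h4
  have hd6 : d ≤ 6 := Nat.le_of_dvd (by norm_num) key
  unfold Nat.ModEq at h4
  interval_cases d <;> omega

end

end Cfsg.Agent.Lead
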